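import Cfsg.Agent.H6.ExtraSplit

set_option autoImplicit false
open Cfsg Cfsg.Agent.H6

namespace Cfsg.Agent.L0.ExtraDual

variable {Q : Type*} [Group Q] [Finite Q] {z : Q}

theorem relIndex_cent (h : EData z) (g : Q) (K : Subgroup Q) :
    (Subgroup.centralizer {g} : Subgroup Q).relIndex K ∣ 2 := by
  rw [Subgroup.relIndex_dvd_two_iff]
  by_cases hK : ∀ b ∈ K, b ∈ (Subgroup.centralizer {g} : Subgroup Q)
  · exact ⟨1, K.one_mem, fun b hb => Or.inr (hK b hb)⟩
  · push Not at hK
    obtain ⟨a, haK, ha⟩ := hK
    refine ⟨a, haK, fun b hb => ?_⟩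
    by_cases hbg : b ∈ (Subgroup.centralizer {g} : Subgroup Q)
    · exact Or.inr hbg
    · left
      rw [Subgroup.mem_centralizer_singleton_iff] at ha hbg ⊢
      have ha' : a * g = z * (g * a) := (h.comm a g).resolve_left ha
      have hb' : b * g = z * (g * b) := (h.comm b g).resolve_left hbg
      calc b * a * g = b * (a * g) := by group
        _ = b * z * (g * a) := by rw [ha']; group
        _ = z * (b * g) * a := by rw [h.central b]; group
        _ = (z * z) * (g * (b * a)) := by rw [hb']; group
        _ = g * (b * a) := by rw [h.zz, one_mul]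

theorem cent_big (h : EData z) : ∀ n, ∀ K : Subgroup Q, Nat.card K = n → z ∈ K →
    2 * Nat.card Q ≤ Nat.card K * Nat.card (Subgroup.centralizer (K : Set Q)) := by
  intro n
  induction n using Nat.strong_induction_on with
  | _ n ih =>
  intro K hK hz
  by_cases hKz : Subgroup.zpowers z = K
  · have hcz : Nat.card (Subgroup.zpowers z) = 2 := by
      rw [Nat.card_zpowers]
      exact orderOf_eq_prime (by rw [pow_two, h.zz]) h.ne
    have htop : Subgroup.centralizer (K : Set Q) = ⊤ := by
      rw [eq_top_iff]
      intro x _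
      rw [Subgroup.mem_centralizer_iff]
      intro k hk
      rw [← hKz] at hk
      obtain ⟨m, rfl⟩ := Subgroup.mem_zpowers_iff.mp hk
      exact ((show Commute z x from (h.central x).symm).zpow_left m)
    rw [htop, ← hKz, hcz, Subgroup.card_top]
  · set S : Set (Subgroup Q) := {L | z ∈ L ∧ L < K} with hS
    have hne : S.Nonempty := ⟨Subgroup.zpowers z, Subgroup.mem_zpowers z,
      lt_of_le_of_ne (by rw [Subgroup.zpowers_le]; exact hz) hKz⟩
    obtain ⟨K0, hK0⟩ := (Set.toFinite S).exists_maximal hne
    obtain ⟨hzK0, hlt⟩ := hK0.prop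
    obtain ⟨g, hgK, hgK0⟩ := SetLike.exists_of_lt hlt
    have hKeq : K0 ⊔ Subgroup.zpowers g = K := by
      have hle : K0 ⊔ Subgroup.zpowers g ≤ K := sup_le hlt.le (by rw [Subgroup.zpowers_le]; exact hgK)
      rcases hle.eq_or_lt with h1 | h1
      · exact h1
      · exfalso
        have h2 := hK0.le_of_ge (y := K0 ⊔ Subgroup.zpowers g) ⟨Subgroup.mem_sup_left hzK0, h1⟩ le_sup_left
        exact hgK0 (h2 (Subgroup.mem_sup_right (Subgroup.mem_zpowers g)))
    have hc1 : Nat.card K0 < n := by
      rw [← hK]
      exact Set.ncard_lt_ncard hlt (Set.toFinite _)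
    have h3 := ih _ hc1 K0 rfl hzK0
    have hdv : Nat.card K0 ∣ Nat.card K := Subgroup.card_dvd_of_le hlt.le
    have h4 : 2 * Nat.card K0 ≤ Nat.card K := by
      obtain ⟨r, hr⟩ := hdv
      have : r ≠ 0 := by
        rintro rfl
        have := Nat.card_pos (α := K); omega
      have : r ≠ 1 := by
        rintro rfl
        omega
      rw [hr, mul_comm]
      exact Nat.mul_le_mul_left _ (by omega)
    have hcc : Subgroup.centralizer (K0 : Set Q) ⊓ Subgroup.centralizer {g} ≤ Subgroup.centralizer (K : Set Q) := by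
      intro x hx
      obtain ⟨hx1, hx2⟩ := Subgroup.mem_inf.mp hx
      rw [← hKeq, Subgroup.mem_centralizer_iff]
      intro k hk
      have hle : K0 ⊔ Subgroup.zpowers g ≤ Subgroup.centralizer {x} := by
        refine sup_le ?_ ?_
        · intro k hk
          rw [Subgroup.mem_centralizer_singleton_iff]
          exact Subgroup.mem_centralizer_iff.mp hx1 k hk
        · rw [Subgroup.zpowers_le, Subgroup.mem_centralizer_singleton_iff]
          exact (Subgroup.mem_centralizer_singleton_iff.mp hx2).symm
      exact Subgroup.mem_centralizer_singleton_iff.mp (hle hk)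
    have h5 : Nat.card (Subgroup.centralizer (K0 : Set Q)) ≤ 2 * Nat.card (Subgroup.centralizer (K : Set Q)) := by
      have e1 := Subgroup.card_mul_index ((Subgroup.centralizer {g} : Subgroup Q).subgroupOf (Subgroup.centralizer (K0 : Set Q)))
      have e2 : Nat.card ((Subgroup.centralizer {g} : Subgroup Q).subgroupOf (Subgroup.centralizer (K0 : Set Q)))
          = Nat.card (Subgroup.centralizer (K0 : Set Q) ⊓ Subgroup.centralizer {g} : Subgroup Q) := by
        rw [← Subgroup.inf_subgroupOf_left]
        exact Nat.card_congr (Subgroup.subgroupOfEquivOfLe inf_le_left).toEquiv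
      have e3 := Nat.le_of_dvd (by norm_num) (relIndex_cent h g (Subgroup.centralizer (K0 : Set Q)))
      have e4 : Nat.card (Subgroup.centralizer (K0 : Set Q) ⊓ Subgroup.centralizer {g} : Subgroup Q) ≤ Nat.card (Subgroup.centralizer (K : Set Q)) :=
        Nat.card_le_card_of_injective _ (Subgroup.inclusion_injective hcc)
      rw [e2] at e1
      rw [← e1]
      calc _ ≤ Nat.card (Subgroup.centralizer (K : Set Q)) * 2 := Nat.mul_le_mul e4 e3
        _ = _ := by ring
    calc 2 * Nat.card Q ≤ Nat.card K0 * Nat.card (Subgroup.centralizer (K0 : Set Q)) := h3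
      _ ≤ Nat.card K0 * (2 * Nat.card (Subgroup.centralizer (K : Set Q))) := Nat.mul_le_mul_left _ h5
      _ = (2 * Nat.card K0) * Nat.card (Subgroup.centralizer (K : Set Q)) := by ring
      _ ≤ _ := Nat.mul_le_mul_right _ h4

theorem exists_dual (h : EData z) {M : Subgroup Q} (hM : M.index = 2) (hz : z ∈ M) :
    ∃ x, (∀ m ∈ M, x * m = m * x) ∧ ¬ ∀ y, x * y = y * x := by
  have h1 := cent_big h _ M rfl hz
  have h2 := Subgroup.card_mul_index M
  rw [hM] at h2
  have h3 : 4 ≤ Nat.card (Subgroup.centralizer (M : Set Q)) := by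
    have hp := Nat.card_pos (α := M)
    rw [← h2] at h1
    have : Nat.card M * 4 ≤ Nat.card M * Nat.card (Subgroup.centralizer (M : Set Q)) := by linarith
    exact Nat.le_of_mul_le_mul_left this hp
  by_contra hcon
  push Not at hcon
  have h4 : ((Subgroup.centralizer (M : Set Q) : Subgroup Q) : Set Q) ⊆ {1, z} := by
    intro x hx
    have h5 := h.cen x (hcon x (fun m hm => (Subgroup.mem_centralizer_iff.mp hx m hm).symm))
    rcases h5 with h5 | h5
    · left; exact h5
    · right; exact h5
  have h5 := Set.ncard_le_ncard h4 (Set.toFinite _)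
  rw [Set.ncard_pair h.ne.symm] at h5
  have h6 : Nat.card (Subgroup.centralizer (M : Set Q)) ≤ 2 := h5
  omega

end Cfsg.Agent.L0.ExtraDual
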