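import Mathlib

set_option autoImplicit false

namespace Cfsg.Agent.L0.ToGL

variable {n R : Type*} [Fintype n] [DecidableEq n] [CommRing R]

theorem toGL_mk (g : GL n R) (h : (g : Matrix n n R).det = 1) : Matrix.SpecialLinearGroup.toGL (⟨g, h⟩ : Matrix.SpecialLinearGroup n R) = g :=
  Units.ext rfl

theorem surj (h1 : ∀ x : R, IsUnit x → x = 1) : Function.Surjective (Matrix.SpecialLinearGroup.toGL : Matrix.SpecialLinearGroup n R →* GL n R) := by
  intro g
  exact ⟨⟨g, h1 _ ((Matrix.isUnit_iff_isUnit_det _).mp g.isUnit)⟩, toGL_mk g _⟩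

theorem card_cent (h1 : ∀ x : R, IsUnit x → x = 1) (s : Matrix.SpecialLinearGroup n R) :
    Nat.card (Subgroup.centralizer ({s} : Set (Matrix.SpecialLinearGroup n R))) =
      Nat.card (Subgroup.centralizer ({Matrix.SpecialLinearGroup.toGL s} : Set (GL n R))) := by
  have hinj := Matrix.SpecialLinearGroup.toGL_injective (n := n) (R := R)
  obtain ⟨e, he⟩ : ∃ e : Matrix.SpecialLinearGroup n R ≃* GL n R, ∀ g, e g = Matrix.SpecialLinearGroup.toGL g :=
    ⟨MulEquiv.ofBijective _ ⟨hinj, surj h1⟩, fun g => rfl⟩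
  refine Nat.card_congr (Equiv.subtypeEquiv e.toEquiv ?_)
  intro g
  rw [Subgroup.mem_centralizer_singleton_iff, Subgroup.mem_centralizer_singleton_iff]
  rw [show e.toEquiv g = Matrix.SpecialLinearGroup.toGL g from he g, ← map_mul, ← map_mul]
  exact hinj.eq_iff.symm

theorem coe (s : Matrix.SpecialLinearGroup n R) : ((Matrix.SpecialLinearGroup.toGL s : GL n R) : Matrix n n R) = (s : Matrix n n R) := rfl

theorem trans_sub {F : Type*} [Field F] {n : ℕ} (i j : Fin n) (hij : i ≠ j) :
    ((Matrix.transvection i j (1 : F)) - 1).rank = 1 ∧ ((Matrix.transvection i j (1 : F)) - 1) * ((Matrix.transvection i j (1 : F)) - 1) = 0 := by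
  have ht1 : (Matrix.transvection i j (1 : F)) - 1 = Matrix.single i j 1 := by
    rw [Matrix.transvection]; simp
  rw [ht1]
  refine ⟨?_, ?_⟩
  · apply le_antisymm
    · rw [Matrix.single_eq_single_vecMulVec_single]
      exact Matrix.rank_vecMulVec_le _ _
    · by_contra h
      have h0 : (Matrix.single i j (1 : F)).rank = 0 := by omega
      rw [Matrix.rank, Submodule.finrank_eq_zero, LinearMap.range_eq_bot] at h0
      have h1 := LinearMap.congr_fun h0 (Pi.single j 1)
      have h2 := congrFun h1 i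
      rw [Matrix.mulVecLin_apply, Matrix.single_mulVec] at h2
      simp at h2
  · rw [Matrix.single_mul_single_of_ne]
    exact hij.symm

end Cfsg.Agent.L0.ToGL
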